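import Mathlib
import Cfsg.Agent.Lib.Char.BrauerInd

/-!
# Characters realizable over a subfield of `ℂ`; Brauer's splitting field theorem
-/

set_option autoImplicit false
open Cfsg
open scoped ComplexConjugate

namespace CfsgLib.Char

open Finset Module

variable {G : Type*} [Group G] {K : Type} [Field K] (ι : K →+* ℂ)

/-- `χ` is afforded by a representation over the field `K`, embedded in `ℂ` by `ι`. -/
def IsKChar (χ : G → ℂ) : Prop :=
  ∃ (n : ℕ) (ρ : Representation K G (Fin n → K)), χ = fun g => ι (ρ.character g)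

/-- `χ` is afforded by an irreducible representation over the field `K`. -/
def IsKIrr (χ : G → ℂ) : Prop :=
  ∃ (n : ℕ) (ρ : Representation K G (Fin n → K)), ρ.IsIrreducible ∧ χ = fun g => ι (ρ.character g)

/-- Extension of scalars for a matrix representation. -/
noncomputable def baseRep {n : ℕ} (ρ : Representation K G (Fin n → K)) :
    Representation ℂ G (Fin n → ℂ) where
  toFun g := Matrix.toLin' ((LinearMap.toMatrix' (ρ g)).map ι)
  map_one' := by
    rw [map_one, Module.End.one_eq_id, LinearMap.toMatrix'_id,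
      Matrix.map_one _ ι.map_zero ι.map_one, Matrix.toLin'_one]
    rfl
  map_mul' a b := by
    rw [map_mul, LinearMap.toMatrix'_mul, Matrix.map_mul, Matrix.toLin'_mul]; rfl

theorem baseRep_toMatrix {n : ℕ} (ρ : Representation K G (Fin n → K)) (g : G) (i j : Fin n) :
    LinearMap.toMatrix' (baseRep ι ρ g) i j = ι (LinearMap.toMatrix' (ρ g) i j) := by
  change LinearMap.toMatrix' (Matrix.toLin' ((LinearMap.toMatrix' (ρ g)).map ι)) i j = _
  rw [LinearMap.toMatrix'_toLin']
  rfl

theorem baseRep_character {n : ℕ} (ρ : Representation K G (Fin n → K)) (g : G) :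
    (baseRep ι ρ).character g = ι (ρ.character g) := by
  change LinearMap.trace ℂ _ (Matrix.toLin' ((LinearMap.toMatrix' (ρ g)).map ι)) = _
  rw [Matrix.trace_toLin'_eq, Representation.character, ← Matrix.toLin'_toMatrix' (ρ g),
    Matrix.trace_toLin'_eq, Matrix.toLin'_toMatrix']
  simp [Matrix.trace]

variable {ι}

theorem IsKChar.isCharacter {χ : G → ℂ} (h : IsKChar ι χ) : IsCharacter G χ := by
  obtain ⟨n, ρ, rfl⟩ := h
  exact ⟨n, baseRep ι ρ, funext (baseRep_character ι ρ)⟩

theorem IsKIrr.isKChar {χ : G → ℂ} (h : IsKIrr ι χ) : IsKChar ι χ := by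
  obtain ⟨n, ρ, -, rfl⟩ := h
  exact ⟨n, ρ, rfl⟩

variable (ι) in
theorem isKChar_of_rep {V : Type*} [AddCommGroup V] [Module K V] [FiniteDimensional K V]
    (ρ : Representation K G V) : IsKChar ι (fun g => ι (ρ.character g)) :=
  ⟨finrank K V, repTransport ρ (Module.finBasis K V).equivFun, by
    rw [Representation.char_iso (repTransportEquiv ρ (Module.finBasis K V).equivFun)]⟩

variable (ι) in
theorem isKIrr_of_rep {V : Type*} [AddCommGroup V] [Module K V] [FiniteDimensional K V]
    (ρ : Representation K G V) [ρ.IsIrreducible] : IsKIrr ι (fun g => ι (ρ.character g)) :=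
  ⟨finrank K V, repTransport ρ (Module.finBasis K V).equivFun,
    isIrreducible_of_equiv (repTransportEquiv ρ _), by
    rw [Representation.char_iso (repTransportEquiv ρ (Module.finBasis K V).equivFun)]⟩

theorem isKChar_zero : IsKChar ι (0 : G → ℂ) :=
  ⟨0, 1, by rw [char_of_subsingleton]; funext g; simp⟩

theorem IsKChar.add {χ ψ : G → ℂ} (hχ : IsKChar ι χ) (hψ : IsKChar ι ψ) : IsKChar ι (χ + ψ) := by
  obtain ⟨n, ρ, rfl⟩ := hχ
  obtain ⟨m, σ, rfl⟩ := hψ
  have := isKChar_of_rep ι (ρ.prod σ)
  rw [char_prod] at this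
  convert this using 1
  funext g
  simp

theorem isKChar_multiset_sum (s : Multiset (G → ℂ)) (hs : ∀ χ ∈ s, IsKChar ι χ) :
    IsKChar ι s.sum :=
  Multiset.sum_induction _ _ (fun _ _ => IsKChar.add) isKChar_zero hs

theorem natCard_ne_zero_of_ringHom [Finite G] (ι : K →+* ℂ) : (Nat.card G : K) ≠ 0 := by
  intro h
  apply natCard_ne_zero (G := G)
  rw [← map_natCast ι, h, map_zero]

theorem IsKChar.exists_multiset [Finite G] {χ : G → ℂ} (hχ : IsKChar ι χ) :
    ∃ s : Multiset (G → ℂ), (∀ ψ ∈ s, IsKIrr ι ψ) ∧ χ = s.sum := by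
  obtain ⟨n, ρ, rfl⟩ := hχ
  have : NeZero (Nat.card G : K) := ⟨natCard_ne_zero_of_ringHom ι⟩
  refine rep_induction (k := K) (G := G) (fun V _ _ _ ρ =>
    ∃ s : Multiset (G → ℂ), (∀ ψ ∈ s, IsKIrr ι ψ) ∧ (fun g => ι (ρ.character g)) = s.sum)
    ?_ ?_ _ ρ
  · intro V _ _ _ _ ρ
    refine ⟨0, by simp, ?_⟩
    rw [char_of_subsingleton]; funext g; simp
  · rintro V _ _ _ ρ U U' hUU' hU ⟨s, hs, hs'⟩
    refine ⟨(fun g => ι (U.toRepresentation.character g)) ::ₘ s, ?_, ?_⟩
    · intro ψ hψ
      rcases Multiset.mem_cons.mp hψ with rfl | h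
      · exact isKIrr_of_rep ι _
      · exact hs ψ h
    · rw [Multiset.sum_cons, ← hs', char_eq_add_of_isCompl hUU']
      funext g
      simp

theorem IsKIrr.ne_zero {χ : G → ℂ} (hχ : IsKIrr ι χ) : χ ≠ 0 := by
  obtain ⟨n, ρ, hρ, rfl⟩ := hχ
  intro h
  have h1 := congrFun h 1
  simp only [Representation.char_one, map_natCast, Pi.zero_apply, Nat.cast_eq_zero] at h1
  exact (finrank_pos_of_isIrreducible ρ).ne' h1

/-- Characters of irreducible `K`-representations are equal or orthogonal. -/
theorem IsKIrr.eq_of_inner_ne_zero [Fintype G] {χ ψ : G → ℂ} (hχ : IsKIrr ι χ) (hψ : IsKIrr ι ψ)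
    (h : classInner χ ψ ≠ 0) : χ = ψ := by
  rw [classInner_char_eq_sum_inv χ hψ.isKChar.isCharacter] at h
  obtain ⟨n, ρ, hρ, rfl⟩ := hχ
  obtain ⟨m, σ, hσ, rfl⟩ := hψ
  have : Invertible (Nat.card G : K) := invertibleOfNonzero (natCard_ne_zero_of_ringHom ι)
  have h1 := congrArg ι (Representation.card_inv_mul_sum_char_mul_char_eq_finrank σ ρ)
  simp only [map_mul, map_inv₀, map_natCast, map_sum] at h1
  rw [h1] at h
  cases isEmpty_or_nonempty (σ.Equiv ρ) with
  | inl he => exact absurd (by simp [finrank_eq_zero_of_subsingleton]) h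
  | inr he => rw [Representation.char_iso he.some]

/-- A character which is a difference of two `K`-characters is a `K`-character. -/
theorem isKChar_of_add_eq [Finite G] {χ A B : G → ℂ} (hχ : IsCharacter G χ) (hA : IsKChar ι A)
    (hB : IsKChar ι B) (h : χ + B = A) : IsKChar ι χ := by
  classical
  have := Fintype.ofFinite G
  obtain ⟨s, hs, rfl⟩ := hA.exists_multiset
  obtain ⟨t, ht, rfl⟩ := hB.exists_multiset
  clear hA hB
  induction t using Multiset.induction_on generalizing s with
  | empty =>
    rw [Multiset.sum_zero, add_zero] at h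
    rw [h]
    exact isKChar_multiset_sum s fun ψ hψ => (hs ψ hψ).isKChar
  | cons b t ih =>
    have hb := ht b (Multiset.mem_cons_self _ _)
    have hbc := hb.isKChar.isCharacter
    have ht' : ∀ ψ ∈ t, IsKIrr ι ψ := fun ψ hψ => ht ψ (Multiset.mem_cons_of_mem hψ)
    have htc : IsCharacter G t.sum :=
      isCharacter_multiset_sum t fun ψ hψ => (ht' ψ hψ).isKChar.isCharacter
    have h1 : classInner s.sum b ≠ 0 := by
      rw [← h, Multiset.sum_cons, classInner_add_left, classInner_add_left]
      obtain ⟨x, hx⟩ := exists_classInner_eq_nat hχ hbc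
      obtain ⟨y, hy⟩ := exists_classInner_eq_nat hbc hbc
      obtain ⟨z, hz⟩ := exists_classInner_eq_nat htc hbc
      have hy0 : y ≠ 0 := by
        rintro rfl
        rw [Nat.cast_zero, classInner_self_eq_zero] at hy
        exact hb.ne_zero hy
      rw [hx, hy, hz]
      exact_mod_cast (by omega : x + (y + z) ≠ 0)
    have h2 : b ∈ s := by
      by_contra hbs
      apply h1
      refine Multiset.sum_induction (fun f => classInner f b = 0) s ?_ (classInner_zero_left b) ?_
      · intro f g hf hg
        rw [classInner_add_left, hf, hg, add_zero]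
      · intro a ha
        by_contra hab
        exact hbs ((hs a ha).eq_of_inner_ne_zero hb hab ▸ ha)
    refine ih (s.erase b) (fun ψ hψ => hs ψ (Multiset.mem_of_mem_erase hψ)) ht' ?_
    rw [← Multiset.cons_erase h2, Multiset.sum_cons, Multiset.sum_cons] at h
    exact add_left_cancel (a := b) (by rw [← h]; abel)

/-- The regular representation on functions. -/
def funRep (K : Type) [Field K] (G : Type*) [Group G] : Representation K G (G → K) where
  toFun g := LinearMap.funLeft K K (fun x => g⁻¹ * x)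
  map_one' := by ext f x; simp
  map_mul' a b := by ext f x; simp [mul_assoc]

/-- A function induced from a linear character with values in `K` is a `K`-character. -/
theorem isKChar_indFun [Fintype G] (H : Subgroup G) (μ : H →* K) :
    IsKChar ι (indFun H fun h => ι (μ h)) := by
  classical
  have hH : (Nat.card H : K) ≠ 0 := natCard_ne_zero_of_ringHom ι
  let T₀ : (G → K) →ₗ[K] (G → K) :=
    (Nat.card H : K)⁻¹ • ∑ h : H, μ h • LinearMap.funLeft K K (fun x => x * (h : G))
  have hT₀ : ∀ f x, T₀ f x = (Nat.card H : K)⁻¹ * ∑ h : H, μ h * f (x * h) := by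
    intro f x
    simp [T₀, Finset.sum_apply]
  let T : (funRep K G).IntertwiningMap (funRep K G) := ⟨T₀, fun g => by
    refine LinearMap.ext fun f => ?_
    funext x
    change T₀ (fun y => f (g⁻¹ * y)) x = T₀ f (g⁻¹ * x)
    simp only [hT₀, mul_assoc]⟩
  have hidem : ∀ f, T (T f) = T f := by
    intro f
    funext x
    change T₀ (T₀ f) x = T₀ f x
    simp only [hT₀]
    congr 1
    have : ∀ h : H, μ h * ((Nat.card H : K)⁻¹ * ∑ k : H, μ k * f (x * h * k)) =
        (Nat.card H : K)⁻¹ * ∑ k : H, μ k * f (x * k) := by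
      intro h
      rw [mul_left_comm, Finset.mul_sum]
      congr 1
      refine Fintype.sum_equiv (Equiv.mulLeft h) _ _ ?_
      intro k
      simp [mul_assoc]
    simp only [this, sum_const, card_univ, nsmul_eq_mul, ← Nat.card_eq_fintype_card]
    rw [← mul_assoc, mul_inv_cancel₀ hH, one_mul]
  have h := isKChar_of_rep ι T.range.toRepresentation
  convert h using 1
  funext g
  rw [char_range_of_idempotent T hidem, LinearMap.trace_eq_matrix_trace K (Pi.basisFun K G),
    Matrix.trace, indFun_apply, map_sum, Finset.mul_sum]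
  refine Finset.sum_congr rfl fun x _ => ?_
  rw [Matrix.diag_apply, LinearMap.toMatrix_apply, Pi.basisFun_repr, Pi.basisFun_apply]
  change _ = ι (T₀ (Pi.single x 1) (g⁻¹ * x))
  rw [hT₀, map_mul, map_inv₀, map_natCast, map_sum]
  congr 1
  have e : ∀ h : H, (g⁻¹ * x * h = x) ↔ (h : G) = x⁻¹ * g * x := by
    intro h
    constructor
    · intro hh
      calc (h : G) = x⁻¹ * g * (g⁻¹ * x * h) := by group
        _ = _ := by rw [hh]
    · intro hh; rw [hh]; group
  simp only [Pi.single_apply, e, mul_ite, mul_one, mul_zero]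
  rw [extendByZero_eq_dite]
  split_ifs with hx
  · rw [Finset.sum_eq_single (⟨_, hx⟩ : H)]
    · simp
    · intro b _ hb
      rw [if_neg (fun h => hb (Subtype.ext h)), map_zero]
    · simp
  · symm
    refine Finset.sum_eq_zero fun b _ => ?_
    rw [if_neg (fun h => hx (by rw [← h]; exact b.2)), map_zero]

/-- Brauer: if `K` contains all roots of unity of order the exponent of `G`, every character of `G`
is afforded by a `K`-representation. -/
theorem isKChar_of_roots [Finite G] (hK : ∀ z : ℂ, z ^ Monoid.exponent G = 1 → z ∈ ι.range)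
    {χ : G → ℂ} (hχ : IsCharacter G χ) : IsKChar ι χ := by
  have := Fintype.ofFinite G
  have key : ∀ f ∈ brauerSpan G, ∃ A B, IsKChar ι A ∧ IsKChar ι B ∧ f + B = A := by
    intro f hf
    induction hf using AddSubgroup.closure_induction with
    | mem f hf =>
      obtain ⟨E, -, β, rfl⟩ := hf
      have h1 : ∀ t : E, ∃ k : K, ι k = β t := by
        intro t
        apply hK
        rw [← Units.val_pow_eq_pow_val, ← map_pow]
        have : t ^ Monoid.exponent G = 1 := Subtype.ext (Monoid.pow_exponent_eq_one (t : G))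
        rw [this, map_one, Units.val_one]
      choose k hk using h1
      let μ : E →* K :=
        { toFun := k
          map_one' := ι.injective (by rw [hk]; simp)
          map_mul' := fun a b => ι.injective (by rw [map_mul, hk, hk, hk]; simp) }
      refine ⟨_, 0, isKChar_indFun E μ, isKChar_zero, ?_⟩
      rw [add_zero]
      congr 1
      funext t
      exact (hk t).symm
    | zero => exact ⟨0, 0, isKChar_zero, isKChar_zero, add_zero _⟩
    | add f g _ _ hf hg =>
      obtain ⟨A, B, hA, hB, rfl⟩ := hf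
      obtain ⟨C, D, hC, hD, rfl⟩ := hg
      exact ⟨_, _, hA.add hC, hB.add hD, by abel⟩
    | neg f _ hf =>
      obtain ⟨A, B, hA, hB, rfl⟩ := hf
      exact ⟨_, _, hB, hA, by abel⟩
  obtain ⟨A, B, hA, hB, h⟩ := key χ (mem_brauerSpan_of_isCharacter hχ)
  exact isKChar_of_add_eq hχ hA hB h

/-- Brauer's splitting field theorem, matrix form. -/
theorem exists_equiv_entries_mem [Finite G]
    (hK : ∀ z : ℂ, z ^ Monoid.exponent G = 1 → z ∈ ι.range) {n : ℕ}
    (ρ : Representation ℂ G (Fin n → ℂ)) :
    ∃ σ : Representation ℂ G (Fin n → ℂ), Nonempty (ρ.Equiv σ) ∧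
      ∀ g i j, LinearMap.toMatrix' (σ g) i j ∈ ι.range := by
  obtain ⟨m, τ, hτ⟩ := isKChar_of_roots hK (χ := ρ.character) ⟨n, ρ, rfl⟩
  have h1 := congrFun hτ 1
  simp only [Representation.char_one, finrank_fintype_fun_eq_card, Fintype.card_fin, map_natCast,
    Nat.cast_inj] at h1
  subst h1
  refine ⟨baseRep ι τ, nonempty_equiv_of_character_eq _ _ ?_, fun g i j => ?_⟩
  · rw [hτ]; funext g; exact (baseRep_character ι τ g).symm
  · rw [baseRep_toMatrix]; exact ⟨_, rfl⟩

end CfsgLib.Char
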